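import Cfsg.Agent.H566.HT.TDElt
import Cfsg.Agent.H566.HT.TDOut
import Cfsg.Agent.H234.HT.ExcRow
import Cfsg.Agent.H795.NotAbRows

/-!
# S4933, part (O), `³D₄(q)`: the row (helper566)
-/

set_option autoImplicit false
set_option linter.unusedSectionVars false

namespace Cfsg.Agent.H566.HT

open Cfsg Cfsg.Lie Cfsg.Agent.H234.HT Cfsg.Agent.H37.HT Cfsg.Agent.H316.HT

/-- **The field `d4t` of `OAb`** (with `p ∣ |S|`). -/
theorem row_d4t (p : ℕ) [Fact p.Prime] (F : Type) [Field F] [Fintype F] (q : ℕ) (hp2 : p ≠ 2) (hq : IsPrimePow q)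
    (hF : Fintype.card F = q ^ 3) (hpq : ¬ p ∣ q) (hab : ∀ P : Sylow p ↥(twistedD4 F q), IsMulCommutative P)
    (hpG : p ∣ Nat.card ↥(twistedD4 F q)) : Row p ↥(twistedD4 F q) := by
  have hp : p.Prime := Fact.out
  obtain ⟨r, f, hr', hf, hqr⟩ := id hq
  subst hqr
  have hr : r.Prime := hr'.nat_prime
  have : Fact r.Prime := ⟨hr⟩
  have hc : CharP F r := charP_of_card_eq_prime_pow (f := f * 3) (by rw [hF, ← pow_mul])
  have hrp : r ≠ p := by
    rintro rfl
    exact hpq (dvd_pow_self _ hf.ne')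
  by_cases h3 : p = 3
  · subst h3
    exfalso
    have h3F : (3 : F) ≠ 0 := fun h => by
      have h1 : r ∣ 3 := (CharP.cast_eq_zero_iff F r 3).1 (by exact_mod_cast h)
      exact hrp ((Nat.prime_dvd_prime_iff_eq hr hp).1 h1)
    obtain ⟨P⟩ : Nonempty (Sylow 3 ↥(twistedD4 F (r ^ f))) := inferInstance
    exact H795.NotAbRows.twD4 h3F hq hF P (hab P)
  · have hp5 : 5 ≤ p := by
      have := hp.two_le
      by_contra h
      have h4 : p = 4 := by omega
      rw [h4] at hp
      exact absurd hp (by norm_num)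
    refine row_mat hp2 hr hrp hf (fun P x hx y hy => ?_) (elt5 hq hF hp hp5 hpq hpG).three
      (outD_td4 hr hf hF hp hp5)
    have h1 := (hab P).is_comm.comm ⟨x, hx⟩ ⟨y, hy⟩
    exact congrArg Subtype.val h1

end Cfsg.Agent.H566.HT
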